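import Cfsg.Agent.Lib.Compute.Schur2.Cover
import Cfsg.Agent.Lib.Compute.Schur2.McL.TFinal

/-!
# `McL`: stem extensions with commuting lifts of a pair of elements are isomorphisms
-/

set_option autoImplicit false
set_option maxRecDepth 1000000

namespace Cfsg.Agent.Lib.Compute.Schur2.McL.T

open Cfsg Cfsg.Agent.Lib.Compute.SchurLin Cfsg.Agent.Lib.Compute.Schur2 Cfsg.Agent.Lib.Compute.Schur2.Cover

/-- The first word of the pair. -/
def w1 : List ℕ := [2, 1, 3, 0]
/-- The second word of the pair. -/
def w2 : List ℕ := [3, 2, 1, 5, 3, 4, 0, 2]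

theorem gcdK : Nat.gcd (walkSum u.t (Nat.mul 2 u.n) (ccE u d) 0 (commW w1 w2)) 3 = 1 := by decide +kernel

/-- The groups with the presentation of the table of `McL`: stem extensions with commuting lifts of the pair are
isomorphisms. -/
theorem coverProp : CoverProp c (c.N * (L.c.N * 7)) w1 w2 :=
  coverProp_of_table sound hSB (by decide) hnormC
    (fun _ _ _ _ hrel hgen hcard => hasSec_of_nest sound hSB L.presTriv nestChk hrel hgen hcard)
    u rfl rfl rfl rfl rfl rfl (m := 17) (by decide) hnormU rfl rfl upChk d tailChk rfl rfl (by decide) (by decide) gcdK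

end Cfsg.Agent.Lib.Compute.Schur2.McL.T
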