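import Cfsg.Agent.Lib.Compute.Schur2.McL.Cover

/-!
# `McL`: a second pair of elements
-/

set_option autoImplicit false
set_option maxRecDepth 1000000

namespace Cfsg.Agent.Lib.Compute.Schur2.McL.T

open Cfsg Cfsg.Agent.Lib.Compute.SchurLin Cfsg.Agent.Lib.Compute.Schur2 Cfsg.Agent.Lib.Compute.Schur2.Cover

/-- The first word of the second pair. -/
def w1b : List ℕ := [2, 1, 3, 0, 2, 1, 3, 0, 3, 2, 1, 5, 3, 4, 0, 2]
/-- The second word of the second pair. -/
def w2b : List ℕ := [2, 1, 3, 0]

theorem gcdKb : Nat.gcd (walkSum u.t (Nat.mul 2 u.n) (ccE u d) 0 (commW w1b w2b)) 3 = 1 := by decide +kernel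

/-- The groups with the presentation of the table of `McL`: stem extensions with commuting lifts of the second pair
are isomorphisms. -/
theorem coverPropB : CoverProp c (c.N * (L.c.N * 7)) w1b w2b :=
  coverProp_of_table sound hSB (by decide) hnormC
    (fun _ _ _ _ hrel hgen hcard => hasSec_of_nest sound hSB L.presTriv nestChk hrel hgen hcard)
    u rfl rfl rfl rfl rfl rfl (m := 17) (by decide) hnormU rfl rfl upChk d tailChk rfl rfl (by decide) (by decide) gcdKb

end Cfsg.Agent.Lib.Compute.Schur2.McL.T
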