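import Cfsg.Agent.Lib.Compute.Schur2.McL.LData

/-!
# The presentation of `2.A₈` used for `McL`
-/

set_option autoImplicit false
set_option maxRecDepth 1000000

namespace Cfsg.Agent.Lib.Compute.Schur2.McL.L

open Cfsg Cfsg.Agent.Lib.Compute.SchurLin Cfsg.Agent.Lib.Compute.Schur2
open Cfsg.Agent.Lib.Compute.PermCert (allB)

universe u

theorem certChk : certB c eE 29510 5902 eP rT 8 = true := by decide +kernel

theorem sound : TC.Sound.{u} c := sound_of_check certChk

theorem hSB : SubBound.{u} c 7 := subBound_cyc (kp := 7) (w := [0, 2, 0, 3]) (by decide +kernel)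

theorem upF : allB (fun i => allB (u.fedgeCheck2 24 16 pk rvR i) (Nat.mul 2 u.n)) u.N = true := by decide +kernel

theorem upChk : u.check = true :=
  UP.check_of_parts2 (B := 24) (b := 16) (P := pk) (R := rvR) (fun _ _ => rfl) (fun _ _ => rfl)
    (by decide +kernel) (by decide +kernel) (by decide +kernel) upF

theorem tailChk : UP.tailCheck u d = true := by decide +kernel

theorem hnormC : normB c.n c.W = true := by decide +kernel

theorem hnormU : normB u.n u.W = true := by decide +kernel

/-- Groups with the relators of the table, generated by the letters, of order `40320`, have trivial multiplier and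
are perfect. -/
theorem presTriv : PresTriv c (c.N * 7) := by
  refine presTriv_of_table sound hSB (by decide) hnormC ?_ u rfl rfl rfl rfl rfl rfl (m := 8) (by decide) hnormU rfl rfl upChk d rfl tailChk
  intro X _ _ el hrel hgen hcard
  refine hasSec_of_coprime sound hSB hrel hgen hcard (perfect_of_norm hnormC (sound.{0}).hW hrel (by decide) hgen) [7] rfl ?_
  intro p hp
  simp only [List.mem_singleton] at hp
  subst hp
  refine ⟨by norm_num, ?_⟩
  rw [hcard]
  decide

end Cfsg.Agent.Lib.Compute.Schur2.McL.L
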