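import Cfsg.Agent.Lib.Compute.Schur2.McL.TTab

/-! # The multiplier of `McL`: the check of the labels, part -/

set_option autoImplicit false
set_option maxRecDepth 1000000

namespace Cfsg.Agent.Lib.Compute.Schur2.McL.T

open Cfsg Cfsg.Agent.Lib.Compute.SchurLin Cfsg.Agent.Lib.Compute.Schur2
open Cfsg.Agent.Lib.Compute.PermCert (allB)
open Cfsg.Agent.Lib.Compute.ToddCoxeterCore (allFrom)

theorem lc0 : ptsB 0 (ptFast tl (nat_lit 6) (nat_lit 2) (nat_lit 3) (nat_lit 3) rs) 600 = true := by decide +kernel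
theorem lc1 : ptsB 600 (ptFast tl (nat_lit 6) (nat_lit 2) (nat_lit 3) (nat_lit 3) rs) 600 = true := by decide +kernel
theorem lc2 : ptsB 1200 (ptFast tl (nat_lit 6) (nat_lit 2) (nat_lit 3) (nat_lit 3) rs) 600 = true := by decide +kernel
theorem lc3 : ptsB 1800 (ptFast tl (nat_lit 6) (nat_lit 2) (nat_lit 3) (nat_lit 3) rs) 600 = true := by decide +kernel
theorem lc4 : ptsB 2400 (ptFast tl (nat_lit 6) (nat_lit 2) (nat_lit 3) (nat_lit 3) rs) 600 = true := by decide +kernel
theorem lc5 : ptsB 3000 (ptFast tl (nat_lit 6) (nat_lit 2) (nat_lit 3) (nat_lit 3) rs) 600 = true := by decide +kernel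
theorem lc6 : ptsB 3600 (ptFast tl (nat_lit 6) (nat_lit 2) (nat_lit 3) (nat_lit 3) rs) 600 = true := by decide +kernel
theorem lc7 : ptsB 4200 (ptFast tl (nat_lit 6) (nat_lit 2) (nat_lit 3) (nat_lit 3) rs) 600 = true := by decide +kernel
end Cfsg.Agent.Lib.Compute.Schur2.McL.T
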