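import Cfsg.Agent.Lib.Compute.Schur2.McL.TTab

/-! # The multiplier of `McL`: the check of the labels, part -/

set_option autoImplicit false
set_option maxRecDepth 1000000

namespace Cfsg.Agent.Lib.Compute.Schur2.McL.T

open Cfsg Cfsg.Agent.Lib.Compute.SchurLin Cfsg.Agent.Lib.Compute.Schur2
open Cfsg.Agent.Lib.Compute.PermCert (allB)
open Cfsg.Agent.Lib.Compute.ToddCoxeterCore (allFrom)

theorem lc8 : ptsB 4800 (ptFast tl (nat_lit 6) (nat_lit 2) (nat_lit 3) (nat_lit 3) rs) 600 = true := by decide +kernel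
theorem lc9 : ptsB 5400 (ptFast tl (nat_lit 6) (nat_lit 2) (nat_lit 3) (nat_lit 3) rs) 600 = true := by decide +kernel
theorem lc10 : ptsB 6000 (ptFast tl (nat_lit 6) (nat_lit 2) (nat_lit 3) (nat_lit 3) rs) 600 = true := by decide +kernel
theorem lc11 : ptsB 6600 (ptFast tl (nat_lit 6) (nat_lit 2) (nat_lit 3) (nat_lit 3) rs) 600 = true := by decide +kernel
theorem lc12 : ptsB 7200 (ptFast tl (nat_lit 6) (nat_lit 2) (nat_lit 3) (nat_lit 3) rs) 600 = true := by decide +kernel
theorem lc13 : ptsB 7800 (ptFast tl (nat_lit 6) (nat_lit 2) (nat_lit 3) (nat_lit 3) rs) 600 = true := by decide +kernel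
theorem lc14 : ptsB 8400 (ptFast tl (nat_lit 6) (nat_lit 2) (nat_lit 3) (nat_lit 3) rs) 600 = true := by decide +kernel
theorem lc15 : ptsB 9000 (ptFast tl (nat_lit 6) (nat_lit 2) (nat_lit 3) (nat_lit 3) rs) 600 = true := by decide +kernel
end Cfsg.Agent.Lib.Compute.Schur2.McL.T
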