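import Cfsg.Agent.Lib.Compute.Schur2.McL.TTab

/-! # The multiplier of `McL`: the check of the labels, part -/

set_option autoImplicit false
set_option maxRecDepth 1000000

namespace Cfsg.Agent.Lib.Compute.Schur2.McL.T

open Cfsg Cfsg.Agent.Lib.Compute.SchurLin Cfsg.Agent.Lib.Compute.Schur2
open Cfsg.Agent.Lib.Compute.PermCert (allB)
open Cfsg.Agent.Lib.Compute.ToddCoxeterCore (allFrom)

theorem lc24 : ptsB 14400 (ptFast tl (nat_lit 6) (nat_lit 2) (nat_lit 3) (nat_lit 3) rs) 600 = true := by decide +kernel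
theorem lc25 : ptsB 15000 (ptFast tl (nat_lit 6) (nat_lit 2) (nat_lit 3) (nat_lit 3) rs) 600 = true := by decide +kernel
theorem lc26 : ptsB 15600 (ptFast tl (nat_lit 6) (nat_lit 2) (nat_lit 3) (nat_lit 3) rs) 600 = true := by decide +kernel
theorem lc27 : ptsB 16200 (ptFast tl (nat_lit 6) (nat_lit 2) (nat_lit 3) (nat_lit 3) rs) 600 = true := by decide +kernel
theorem lc28 : ptsB 16800 (ptFast tl (nat_lit 6) (nat_lit 2) (nat_lit 3) (nat_lit 3) rs) 600 = true := by decide +kernel
theorem lc29 : ptsB 17400 (ptFast tl (nat_lit 6) (nat_lit 2) (nat_lit 3) (nat_lit 3) rs) 600 = true := by decide +kernel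
theorem lc30 : ptsB 18000 (ptFast tl (nat_lit 6) (nat_lit 2) (nat_lit 3) (nat_lit 3) rs) 600 = true := by decide +kernel
theorem lc31 : ptsB 18600 (ptFast tl (nat_lit 6) (nat_lit 2) (nat_lit 3) (nat_lit 3) rs) 600 = true := by decide +kernel
end Cfsg.Agent.Lib.Compute.Schur2.McL.T
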