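import Cfsg.Agent.Lib.Compute.Schur2.McL.TTab

/-! # The multiplier of `McL`: the flips of the labels -/

set_option autoImplicit false
set_option maxRecDepth 1000000

namespace Cfsg.Agent.Lib.Compute.Schur2.McL.T

open Cfsg Cfsg.Agent.Lib.Compute.SchurLin Cfsg.Agent.Lib.Compute.Schur2
open Cfsg.Agent.Lib.Compute.PermCert (allB)
open Cfsg.Agent.Lib.Compute.ToddCoxeterCore (allFrom)

theorem fl0 : ptsB 0 (fun i => allB (l.flipCheck i) (nat_lit 6)) 6000 = true := by decide +kernel
theorem fl1 : ptsB 6000 (fun i => allB (l.flipCheck i) (nat_lit 6)) 6000 = true := by decide +kernel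
theorem fl2 : ptsB 12000 (fun i => allB (l.flipCheck i) (nat_lit 6)) 6000 = true := by decide +kernel
theorem fl3 : ptsB 18000 (fun i => allB (l.flipCheck i) (nat_lit 6)) 4275 = true := by decide +kernel
end Cfsg.Agent.Lib.Compute.Schur2.McL.T
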