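import Cfsg.Agent.Lib.Compute.Schur2.McL.TCert

/-! # The multiplier of `McL`: the entries of the certificate -/

set_option autoImplicit false
set_option maxRecDepth 1000000

namespace Cfsg.Agent.Lib.Compute.Schur2.McL.T

open Cfsg Cfsg.Agent.Lib.Compute.SchurLin Cfsg.Agent.Lib.Compute.Schur2
open Cfsg.Agent.Lib.Compute.PermCert (allB)
open Cfsg.Agent.Lib.Compute.ToddCoxeterCore (allFrom)

theorem key0 : allFrom CC.chkKey 26000 0 = true := by decide +kernel
theorem key1 : allFrom CC.chkKey 26000 26000 = true := by decide +kernel
theorem key2 : allFrom CC.chkKey 26000 52000 = true := by decide +kernel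
theorem key3 : allFrom CC.chkKey 26000 78000 = true := by decide +kernel
theorem key4 : allFrom CC.chkKey 26000 104000 = true := by decide +kernel
theorem key5 : allFrom CC.chkKey 25925 130000 = true := by decide +kernel
end Cfsg.Agent.Lib.Compute.Schur2.McL.T
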